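import Mathlib
import Cfsg.Agent.Solvable.UniqueOrderP

/-!
# Groups whose same-order classes have exactly two sizes `1` and `n`

`structure_of_two_values`: the classification, given Frobenius' divisibility theorem for `G`.
`totient_dvd`: `φ(m)` divides the number of elements of order `m`.
-/

set_option autoImplicit false
set_option linter.style.haveILetI false

namespace Cfsg.Agent.H494.SameOrder

open Subgroup

/-- The number of elements of order `m`. -/
noncomputable def cn (G : Type*) [Group G] (m : ℕ) : ℕ := Nat.card {g : G // orderOf g = m}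

/-- `φ(m)` divides the number of elements of order `m` of a finite group. -/
theorem totient_dvd {G : Type*} [Group G] [Finite G] (m : ℕ) : m.totient ∣ cn G m := by
  classical
  haveI := Fintype.ofFinite G
  unfold cn
  rw [Nat.card_eq_fintype_card, Fintype.card_subtype,
    Finset.card_eq_sum_card_image (fun g : G => zpowers g)]
  apply Finset.dvd_sum
  intro C hC
  obtain ⟨g, hg, rfl⟩ := Finset.mem_image.mp hC
  have hg' : orderOf g = m := by simpa using hg
  have h1 : Finset.card {a ∈ ({g : G | orderOf g = m} : Finset G) | zpowers a = zpowers g}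
      = Finset.card ({a : zpowers g | orderOf a = m} : Finset (zpowers g)) := by
    symm
    refine Finset.card_bij (fun (a : zpowers g) _ => (a : G)) ?_ ?_ ?_
    · intro a ha
      have ha' : orderOf a = m := by simpa using ha
      simp only [Finset.mem_filter, Finset.mem_univ, true_and]
      refine ⟨by rw [orderOf_coe, ha'], ?_⟩
      apply Subgroup.eq_of_le_of_card_ge
      · rw [zpowers_le]; exact a.2
      · rw [Nat.card_zpowers, Nat.card_zpowers, orderOf_coe, ha', hg']
    · intro a _ b _ hab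
      exact Subtype.ext hab
    · intro a ha
      simp only [Finset.mem_filter, Finset.mem_univ, true_and] at ha
      refine ⟨⟨a, ?_⟩, ?_, rfl⟩
      · rw [← ha.2]; exact mem_zpowers a
      · simp [ha.1]
  rw [h1, IsCyclic.card_orderOf_eq_totient]
  rw [Fintype.card_zpowers, hg']

theorem cn_eq_zero {G : Type*} [Group G] {m : ℕ} [Finite G] (h : ∀ g : G, orderOf g ≠ m) :
    cn G m = 0 := by
  unfold cn
  rw [Nat.card_eq_zero]
  left
  exact ⟨fun g => h g.1 g.2⟩

theorem exists_of_cn_ne_zero {G : Type*} [Group G] {m : ℕ} [Finite G] (h : cn G m ≠ 0) :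
    ∃ g : G, orderOf g = m := by
  by_contra hc
  push Not at hc
  exact h (cn_eq_zero hc)

theorem cn_one {G : Type*} [Group G] [Finite G] : cn G 1 = 1 := by
  unfold cn
  rw [Nat.card_eq_one_iff_unique]
  refine ⟨⟨fun a b => ?_⟩, ⟨⟨1, orderOf_one⟩⟩⟩
  have h1 := orderOf_eq_one_iff.mp a.2
  have h2 := orderOf_eq_one_iff.mp b.2
  exact Subtype.ext (h1.trans h2.symm)

theorem card_pow_eq_sum {G : Type*} [Group G] [Finite G] (m : ℕ) (hm : m ≠ 0) :
    Nat.card {g : G // g ^ m = 1} = ∑ d ∈ m.divisors, cn G d := by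
  classical
  haveI := Fintype.ofFinite G
  rw [Nat.card_eq_fintype_card, Fintype.card_subtype]
  have h1 := sum_card_orderOf_eq_card_pow_eq_one (G := G) hm
  rw [← h1]
  apply Finset.sum_congr rfl
  intro d _
  unfold cn
  rw [Nat.card_eq_fintype_card, Fintype.card_subtype]

theorem divisors_mul_primes {p q : ℕ} (hp : p.Prime) (hq : q.Prime) :
    (p * q).divisors = {1, p, q, p * q} := by
  ext d
  rw [Nat.mem_divisors, Nat.dvd_mul]
  simp only [Finset.mem_insert, Finset.mem_singleton]
  constructor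
  · rintro ⟨⟨y, z, hy, hz, rfl⟩, -⟩
    rcases (Nat.dvd_prime hp).mp hy with rfl | rfl <;> rcases (Nat.dvd_prime hq).mp hz with rfl | rfl <;>
      simp
  · intro h
    refine ⟨?_, mul_ne_zero hp.ne_zero hq.ne_zero⟩
    rcases h with rfl | rfl | rfl | rfl
    · exact ⟨1, 1, one_dvd _, one_dvd _, rfl⟩
    · exact ⟨_, 1, dvd_rfl, one_dvd _, mul_one _⟩
    · exact ⟨1, _, one_dvd _, dvd_rfl, one_mul _⟩
    · exact ⟨_, _, dvd_rfl, dvd_rfl, rfl⟩

theorem divisors_four_mul_prime {p : ℕ} (hp : p.Prime) :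
    (4 * p).divisors = {1, 2, 4, p, 2 * p, 4 * p} := by
  ext d
  rw [Nat.mem_divisors, Nat.dvd_mul]
  simp only [Finset.mem_insert, Finset.mem_singleton]
  constructor
  · rintro ⟨⟨y, z, hy, hz, rfl⟩, -⟩
    have hy4 : y = 1 ∨ y = 2 ∨ y = 4 := by
      have h4 : y ≤ 4 := Nat.le_of_dvd (by norm_num) hy
      interval_cases y <;> simp_all
    rcases hy4 with rfl | rfl | rfl <;> rcases (Nat.dvd_prime hp).mp hz with rfl | rfl <;>
      simp
  · intro h
    refine ⟨?_, mul_ne_zero four_ne_zero hp.ne_zero⟩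
    rcases h with rfl | rfl | rfl | rfl | rfl | rfl
    · exact ⟨1, 1, one_dvd _, one_dvd _, rfl⟩
    · exact ⟨2, 1, by norm_num, one_dvd _, mul_one _⟩
    · exact ⟨4, 1, by norm_num, one_dvd _, mul_one _⟩
    · exact ⟨1, _, by norm_num, dvd_rfl, one_mul _⟩
    · exact ⟨2, _, by norm_num, dvd_rfl, rfl⟩
    · exact ⟨4, _, by norm_num, dvd_rfl, rfl⟩

/-- Hypotheses: Frobenius' theorem for `G`, and the two values. -/
structure Hyp (G : Type*) [Group G] (n : ℕ) : Prop where
  frob : ∀ m : ℕ, m ∣ Nat.card G → m ∣ Nat.card {g : G // g ^ m = 1}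
  val : ∀ g : G, cn G (orderOf g) = 1 ∨ cn G (orderOf g) = n
  ex : ∃ g : G, cn G (orderOf g) = n
  ne : n ≠ 1

section

variable {G : Type*} [Group G] [Finite G] {n : ℕ}

theorem Hyp.big (h : Hyp G n) {m : ℕ} (hm : 3 ≤ m) (hex : ∃ g : G, orderOf g = m) : cn G m = n := by
  obtain ⟨g, rfl⟩ := hex
  rcases h.val g with h1 | h1
  · have h2 := totient_dvd (G := G) (orderOf g)
    rw [h1, Nat.dvd_one, Nat.totient_eq_one_iff] at h2
    omega
  · exact h1

theorem Hyp.big' (h : Hyp G n) {m : ℕ} (hm : 3 ≤ m) : cn G m = 0 ∨ cn G m = n := by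
  by_cases h0 : cn G m = 0
  · exact Or.inl h0
  · exact Or.inr (h.big hm (exists_of_cn_ne_zero h0))

theorem Hyp.prime (h : Hyp G n) {p : ℕ} (hp : p.Prime) (hpG : p ∣ Nat.card G) :
    p ∣ 1 + cn G p := by
  have h1 := h.frob p hpG
  rw [card_pow_eq_sum p hp.ne_zero, Nat.Prime.divisors hp, Finset.sum_pair hp.one_lt.ne,
    cn_one] at h1
  exact h1

theorem Hyp.odd_prime (h : Hyp G n) {p : ℕ} (hp : p.Prime) (hp2 : p ≠ 2)
    (hpG : p ∣ Nat.card G) : cn G p = n ∧ p ∣ 1 + n := by
  haveI : Fact p.Prime := ⟨hp⟩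
  have h1 : cn G p = n := h.big (by have := hp.two_le; omega) (exists_prime_orderOf_dvd_card' p hpG)
  exact ⟨h1, by rw [← h1]; exact h.prime hp hpG⟩

theorem Hyp.no_sq (h : Hyp G n) {p : ℕ} (hp : p.Prime) (hp2 : p ≠ 2) (g : G) :
    orderOf g ≠ p ^ 2 := by
  intro hg
  have hpG : p ∣ Nat.card G := by
    refine dvd_trans ?_ (orderOf_dvd_natCard g)
    rw [hg]; exact dvd_pow_self p two_ne_zero
  have h1 := (h.odd_prime hp hp2 hpG).2
  have h3 : 3 ≤ p ^ 2 := by
    have := hp.two_le
    nlinarith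
  have h2 : p ∣ n := by
    rw [← h.big h3 ⟨g, hg⟩]
    refine dvd_trans ?_ (totient_dvd (G := G) (p ^ 2))
    rw [Nat.totient_prime_pow hp two_pos]
    simp
  have h4 : p ∣ 1 := (Nat.dvd_add_left h2).mp h1
  exact hp.one_lt.ne' (Nat.dvd_one.mp h4)

theorem not_dvd_small {p k : ℕ} (hp : p.Prime) (hp2 : p ≠ 2) (hk : k = 1 ∨ k = 2) : ¬ p ∣ k := by
  rcases hk with rfl | rfl
  · intro h; exact hp.one_lt.ne' (Nat.dvd_one.mp h)
  · intro h; exact hp2 ((Nat.prime_dvd_prime_iff_eq hp Nat.prime_two).mp h)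

theorem Hyp.unique_odd (h : Hyp G n) {p q : ℕ} (hp : p.Prime) (hq : q.Prime) (hp2 : p ≠ 2)
    (hq2 : q ≠ 2) (hpG : p ∣ Nat.card G) (hqG : q ∣ Nat.card G) : p = q := by
  by_contra hpq
  have hcop := (Nat.coprime_primes hp hq).mpr hpq
  have h1 := h.frob (p * q) (hcop.mul_dvd_of_dvd_of_dvd hpG hqG)
  have hp3 : 3 ≤ p := by have := hp.two_le; omega
  have hq3 : 3 ≤ q := by have := hq.two_le; omega
  have e1 : p ≠ p * q := by
    intro he
    have : p * 1 = p * q := by rw [mul_one]; exact he
    have := Nat.eq_of_mul_eq_mul_left hp.pos this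
    omega
  have e2 : q ≠ p * q := by
    intro he
    have : 1 * q = p * q := by rw [one_mul]; exact he
    have := Nat.eq_of_mul_eq_mul_right hq.pos this
    omega
  have e3 : 1 ≠ p * q := by
    intro he
    have := Nat.eq_one_of_mul_eq_one_right he.symm
    omega
  have e4 : 1 ≠ p := by omega
  have e5 : 1 ≠ q := by omega
  rw [card_pow_eq_sum _ (mul_ne_zero hp.ne_zero hq.ne_zero), divisors_mul_primes hp hq,
    Finset.sum_insert (by simp [e3, e4, e5]), Finset.sum_insert (by simp [hpq, e1]),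
    Finset.sum_insert (by simp [e2]), Finset.sum_singleton, cn_one,
    (h.odd_prime hp hp2 hpG).1, (h.odd_prime hq hq2 hqG).1] at h1
  have h2 := (h.odd_prime hp hp2 hpG).2
  have h3 : p ∣ 1 + (n + (n + cn G (p * q))) := (dvd_mul_right p q).trans h1
  have hpq3 : 3 ≤ p * q := by nlinarith
  rcases h.big' hpq3 with h0 | h0
  · rw [h0] at h3
    have h4 : p ∣ 2 * (1 + n) := h2.mul_left 2
    have h5 : 2 * (1 + n) = (1 + (n + (n + 0))) + 1 := by ring
    rw [h5] at h4
    exact not_dvd_small hp hp2 (Or.inl rfl) ((Nat.dvd_add_right h3).mp h4)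
  · rw [h0] at h3
    have h4 : p ∣ 3 * (1 + n) := h2.mul_left 3
    have h5 : 3 * (1 + n) = (1 + (n + (n + n))) + 2 := by ring
    rw [h5] at h4
    exact not_dvd_small hp hp2 (Or.inr rfl) ((Nat.dvd_add_right h3).mp h4)

/-- If `2` divides the order and `n` is even, there is exactly one involution. -/
theorem Hyp.cn_two (h : Hyp G n) (h2 : 2 ∣ Nat.card G) (hn : 2 ∣ n) : cn G 2 = 1 := by
  have h1 := h.prime Nat.prime_two h2
  haveI : Fact (Nat.Prime 2) := ⟨Nat.prime_two⟩
  obtain ⟨t, ht⟩ := exists_prime_orderOf_dvd_card' 2 h2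
  rcases h.val t with h3 | h3
  · rw [ht] at h3; exact h3
  · rw [ht] at h3
    rw [h3] at h1
    omega

theorem eq_of_cn_one {m : ℕ} (h : cn G m = 1) {x y : G} (hx : orderOf x = m) (hy : orderOf y = m) :
    x = y := by
  unfold cn at h
  rw [Nat.card_eq_one_iff_unique] at h
  haveI := h.1
  have := Subsingleton.elim (⟨x, hx⟩ : {g : G // orderOf g = m}) ⟨y, hy⟩
  exact congrArg Subtype.val this

theorem Hyp.no_eight (h : Hyp G n) (g : G) : orderOf g ≠ 8 := by
  intro hg
  have h8 : (8 : ℕ) ∣ Nat.card G := hg ▸ orderOf_dvd_natCard g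
  have h4 : (4 : ℕ) ∣ n := by
    rw [← h.big (m := 8) (by norm_num) ⟨g, hg⟩]
    refine dvd_trans ?_ (totient_dvd (G := G) 8)
    decide
  have h2 := h.cn_two (dvd_trans (by norm_num) h8) (dvd_trans (by norm_num) h4)
  have h3 := h.frob 4 (dvd_trans (by norm_num) h8)
  have hd : (4 : ℕ).divisors = {1, 2, 4} := by decide
  have hc4 : cn G 4 = n := h.big (by norm_num) ⟨g ^ 2, by rw [orderOf_pow, hg]; decide⟩
  rw [card_pow_eq_sum 4 (by norm_num), hd, Finset.sum_insert (by decide),
    Finset.sum_insert (by decide), Finset.sum_singleton, cn_one, h2, hc4] at h3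
  omega

theorem orderOf_eq_pow_of_pGroup {p : ℕ} [Fact p.Prime] (hG : IsPGroup p G) (g : G) :
    ∃ k, orderOf g = p ^ k := IsPGroup.iff_orderOf.mp hG g

/-- In a `p`-group without elements of order `p ^ (j + 1)`, `x ^ (p ^ j) = 1`. -/
theorem pow_eq_one_of_no {p j : ℕ} [hp : Fact p.Prime] (hG : IsPGroup p G)
    (hno : ∀ g : G, orderOf g ≠ p ^ (j + 1)) (x : G) : x ^ (p ^ j) = 1 := by
  obtain ⟨k, hk⟩ := IsPGroup.iff_orderOf.mp hG x
  by_cases hkj : k ≤ j
  · rw [← orderOf_dvd_iff_pow_eq_one, hk]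
    exact pow_dvd_pow p hkj
  · exfalso
    push Not at hkj
    apply hno (x ^ (p ^ (k - (j + 1))))
    rw [orderOf_pow, hk]
    have h1 : (p ^ k).gcd (p ^ (k - (j + 1))) = p ^ (k - (j + 1)) :=
      Nat.gcd_eq_right (pow_dvd_pow p (by omega))
    rw [h1, Nat.pow_div (by omega) hp.out.pos]
    congr 1
    omega

theorem exponent_eq_prime {P : Type*} [Group P] {p : ℕ} (hp : p.Prime) [Nontrivial P]
    (h : ∀ x : P, x ^ p = 1) : Monoid.exponent P = p := by
  have h1 : Monoid.exponent P ∣ p := Monoid.exponent_dvd_of_forall_pow_eq_one h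
  rcases (Nat.dvd_prime hp).mp h1 with h2 | h2
  · rw [Monoid.exp_eq_one_iff] at h2
    exact absurd h2 (not_subsingleton P)
  · exact h2

theorem Hyp.two_group (h : Hyp G n) (hG : IsPGroup 2 G) :
    (∃ p : ℕ, p.Prime ∧ IsPGroup p G ∧ 3 ≤ Nat.card G ∧ Monoid.exponent G = p) ∨
      Nonempty (G ≃* QuaternionGroup 2) ∨ (IsCyclic G ∧ Nat.card G = 4) := by
  haveI : Fact (Nat.Prime 2) := ⟨Nat.prime_two⟩
  by_cases h4 : ∃ g : G, orderOf g = 4
  · right
    obtain ⟨g, hg⟩ := h4
    have h4G : (4 : ℕ) ∣ Nat.card G := hg ▸ orderOf_dvd_natCard g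
    have h2n : (2 : ℕ) ∣ n := by
      rw [← h.big (m := 4) (by norm_num) ⟨g, hg⟩]
      refine dvd_trans ?_ (totient_dvd (G := G) 4)
      decide
    have hc2 := h.cn_two (dvd_trans (by norm_num) h4G) h2n
    have hU : Cfsg.Agent.Solvable.UniqueOrderP.UniqueP 2 G := by
      intro x y hx hx2 hy2
      by_cases hy : y = 1
      · rw [hy]; exact one_mem _
      · have h1 : orderOf x = 2 := orderOf_eq_prime hx2 hx
        have h2 : orderOf y = 2 := orderOf_eq_prime hy2 hy
        rw [eq_of_cn_one hc2 h1 h2]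
        exact mem_zpowers y
    have hexp : ∀ x : G, x ^ 4 = 1 := by
      intro x
      have := pow_eq_one_of_no (p := 2) (j := 2) hG (fun g => by
        have := h.no_eight g
        norm_num
        exact this) x
      norm_num at this
      exact this
    rcases Cfsg.Agent.Solvable.UniqueOrderP.cyclic_or_quaternion hG hU with hc | ⟨-, m, hm, ⟨e⟩⟩
    · right
      refine ⟨hc, ?_⟩
      obtain ⟨x, hx⟩ := hc.exists_generator
      have h1 : orderOf x = Nat.card G := orderOf_eq_card_of_forall_mem_zpowers hx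
      have h2 : orderOf x ∣ 4 := orderOf_dvd_of_pow_eq_one (hexp x)
      rw [h1] at h2
      exact Nat.dvd_antisymm h2 h4G
    · left
      have hm1 : m = 1 := by
        by_contra hne
        have h2 : 2 ≤ m := by omega
        haveI : NeZero (2 ^ m) := ⟨by positivity⟩
        have h1 : orderOf (e.symm (QuaternionGroup.a 1)) = 2 * 2 ^ m := by
          rw [MulEquiv.orderOf_eq]
          exact QuaternionGroup.orderOf_a_one
        have h3 : orderOf (e.symm (QuaternionGroup.a 1)) ∣ 4 := orderOf_dvd_of_pow_eq_one (hexp _)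
        rw [h1] at h3
        have h4 : 2 * 2 ^ m ≤ 4 := Nat.le_of_dvd (by norm_num) h3
        have h5 : 2 ^ 2 ≤ 2 ^ m := Nat.pow_le_pow_right (by norm_num) h2
        omega
      subst hm1
      exact ⟨e⟩
  · left
    push Not at h4
    have hexp : ∀ x : G, x ^ 2 = 1 := by
      intro x
      have := pow_eq_one_of_no (p := 2) (j := 1) hG (fun g => by
        have := h4 g
        norm_num
        exact this) x
      simpa using this
    obtain ⟨g, hg⟩ := h.ex
    have hg1 : g ≠ 1 := by
      rintro rfl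
      rw [orderOf_one, cn_one] at hg
      exact h.ne hg.symm
    haveI : Nontrivial G := ⟨g, 1, hg1⟩
    have ho : orderOf g = 2 := orderOf_eq_prime (hexp g) hg1
    refine ⟨2, Nat.prime_two, hG, ?_, exponent_eq_prime Nat.prime_two hexp⟩
    by_contra hlt
    push Not at hlt
    have h2 : Nat.card G = 2 := by
      have h3 : 2 ∣ Nat.card G := ho ▸ orderOf_dvd_natCard g
      have h4 : 0 < Nat.card G := Nat.card_pos
      omega
    have h3 : Nat.card {g : G // g ^ 2 = 1} ≤ Nat.card G :=
      Nat.card_le_card_of_injective _ Subtype.val_injective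
    rw [card_pow_eq_sum 2 two_ne_zero, Nat.Prime.divisors Nat.prime_two,
      Finset.sum_pair (by norm_num), cn_one, ← ho, hg, h2] at h3
    have h5 : n ≠ 0 := by
      rintro rfl
      rw [ho] at hg
      unfold cn at hg
      rw [Nat.card_eq_zero] at hg
      rcases hg with hg | hg
      · exact hg.false ⟨g, ho⟩
      · exact hg.not_finite (inferInstance)
    have := h.ne
    omega

theorem Hyp.pow_p (h : Hyp G n) {p : ℕ} (hp : p.Prime) (hp2 : p ≠ 2) {P : Subgroup G}
    (hP : IsPGroup p P) (x : P) : x ^ p = 1 := by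
  haveI : Fact p.Prime := ⟨hp⟩
  have := pow_eq_one_of_no (p := p) (j := 1) hP (fun g => by
    have := h.no_sq hp hp2 (g : G)
    rw [Subgroup.orderOf_coe] at this
    exact this) x
  simpa using this

theorem isPGroup_of_unique {p : ℕ} (h : ∀ q : ℕ, q.Prime → q ∣ Nat.card G → q = p) :
    IsPGroup p G := by
  by_cases h1 : Nat.card G = 1
  · haveI := (Nat.card_eq_one_iff_unique.mp h1).1
    intro g
    exact ⟨0, Subsingleton.elim _ _⟩
  obtain ⟨q, hq, hqG⟩ := Nat.exists_prime_and_dvd h1
  have hqp := h q hq hqG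
  subst hqp
  haveI : Fact q.Prime := ⟨hq⟩
  rw [IsPGroup.iff_card]
  exact ⟨_, Nat.eq_prime_pow_of_unique_prime_dvd Nat.card_pos.ne' (fun {d} hd hdG => h d hd hdG)⟩

theorem Hyp.odd_only (h : Hyp G n) {p : ℕ} (hp : p.Prime) (hp2 : p ≠ 2) (hpG : p ∣ Nat.card G)
    (h2 : ¬ 2 ∣ Nat.card G) :
    ∃ p : ℕ, p.Prime ∧ IsPGroup p G ∧ 3 ≤ Nat.card G ∧ Monoid.exponent G = p := by
  have hG : IsPGroup p G := isPGroup_of_unique (fun q hq hqG => by
    refine (h.unique_odd hp hq hp2 ?_ hpG hqG).symm
    rintro rfl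
    exact h2 hqG)
  have hle : p ≤ Nat.card G := Nat.le_of_dvd Nat.card_pos hpG
  have h3 : 3 ≤ p := by have := hp.two_le; omega
  haveI : Nontrivial G := by
    rw [← Finite.one_lt_card_iff_nontrivial]; omega
  haveI : Fact p.Prime := ⟨hp⟩
  refine ⟨p, hp, hG, h3.trans hle, exponent_eq_prime hp (fun x => ?_)⟩
  have := pow_eq_one_of_no (p := p) (j := 1) hG (fun g => h.no_sq hp hp2 g) x
  simpa using this

theorem Hyp.mixed (h : Hyp G n) {p : ℕ} (hp : p.Prime) (hp2 : p ≠ 2) (hpG : p ∣ Nat.card G)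
    (h2 : 2 ∣ Nat.card G) :
    ∃ (p : ℕ) (P : Type) (_ : Group P) (_ : Finite P), p.Prime ∧ p ≠ 2 ∧ IsPGroup p P ∧
      Monoid.exponent P = p ∧ Nonempty (G ≃* Multiplicative (ZMod 2) × P) := by
  classical
  haveI : Fact p.Prime := ⟨hp⟩
  haveI : Fact (Nat.Prime 2) := ⟨Nat.prime_two⟩
  have hp3 : 3 ≤ p := by have := hp.two_le; omega
  have hcp := (h.odd_prime hp hp2 hpG).1
  have hdn := (h.odd_prime hp hp2 hpG).2
  have h2n : 2 ∣ n := by
    rw [← hcp]
    refine dvd_trans ?_ (totient_dvd (G := G) p)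
    rw [Nat.totient_prime hp]
    have hodd := hp.eq_two_or_odd'.resolve_left hp2
    obtain ⟨k, hk⟩ := hodd
    exact ⟨k, by omega⟩
  have hc2 := h.cn_two h2 h2n
  obtain ⟨t, ht⟩ := exists_prime_orderOf_dvd_card' 2 h2
  have htu : ∀ x : G, orderOf x = 2 → x = t := fun x hx => eq_of_cn_one hc2 hx ht
  have htc : ∀ x : G, Commute t x := by
    intro x
    have h1 : x * t * x⁻¹ = t := htu _ (by
      have : orderOf (x * t * x⁻¹) = orderOf t :=
        orderOf_injective (MulAut.conj x).toMonoidHom (MulAut.conj x).injective t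
      rw [this, ht])
    have h2 : x * t = t * x := by
      calc x * t = (x * t * x⁻¹) * x := by group
        _ = t * x := by rw [h1]
    exact h2.symm
  -- no elements of order 4
  have hno4 : ∀ g : G, orderOf g ≠ 4 := by
    intro g hg
    have h4G : (4 : ℕ) ∣ Nat.card G := hg ▸ orderOf_dvd_natCard g
    have hcop : Nat.Coprime 4 p := by
      have : Nat.Coprime (2 ^ 2) p := Nat.Coprime.pow_left 2 ((Nat.coprime_primes Nat.prime_two hp).mpr
        (Ne.symm hp2))
      exact this
    have h1 := h.frob (4 * p) (hcop.mul_dvd_of_dvd_of_dvd h4G hpG)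
    have hpodd : p % 2 = 1 := hp.eq_two_or_odd.resolve_left hp2
    have hc4 : cn G 4 = n := h.big (by norm_num) ⟨g, hg⟩
    obtain ⟨x, hx⟩ := exists_prime_orderOf_dvd_card' p hpG
    have hc2p : cn G (2 * p) = n := by
      refine h.big (by omega) ⟨t * x, ?_⟩
      rw [(htc x).orderOf_mul_eq_mul_orderOf_of_coprime, ht, hx]
      rw [ht, hx]
      exact (Nat.coprime_primes Nat.prime_two hp).mpr (Ne.symm hp2)
    rw [card_pow_eq_sum _ (by omega), divisors_four_mul_prime hp,
      Finset.sum_insert (by simp only [Finset.mem_insert, Finset.mem_singleton]; omega),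
      Finset.sum_insert (by simp only [Finset.mem_insert, Finset.mem_singleton]; omega),
      Finset.sum_insert (by simp only [Finset.mem_insert, Finset.mem_singleton]; omega),
      Finset.sum_insert (by simp only [Finset.mem_insert, Finset.mem_singleton]; omega),
      Finset.sum_insert (by simp only [Finset.mem_singleton]; omega),
      Finset.sum_singleton, cn_one, hc2, hc4, hcp, hc2p] at h1
    have h3 : p ∣ 1 + (1 + (n + (n + (n + cn G (4 * p))))) := (dvd_mul_left p 4).trans h1
    rcases h.big' (m := 4 * p) (by omega) with h0 | h0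
    · rw [h0] at h3
      have h4 : p ∣ 3 * (1 + n) := hdn.mul_left 3
      have h5 : 3 * (1 + n) = (1 + (1 + (n + (n + (n + 0))))) + 1 := by ring
      rw [h5] at h4
      exact not_dvd_small hp hp2 (Or.inl rfl) ((Nat.dvd_add_right h3).mp h4)
    · rw [h0] at h3
      have h4 : p ∣ 4 * (1 + n) := hdn.mul_left 4
      have h5 : 4 * (1 + n) = (1 + (1 + (n + (n + (n + n))))) + 2 := by ring
      rw [h5] at h4
      exact not_dvd_small hp hp2 (Or.inr rfl) ((Nat.dvd_add_right h3).mp h4)
  -- the Sylow 2-subgroup has order 2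
  let S : Sylow 2 G := default
  have hS2 : Nat.card S ≤ 2 := by
    have hsq : ∀ x : S, x ^ 2 = 1 := by
      intro x
      have := pow_eq_one_of_no (p := 2) (j := 1) S.isPGroup' (fun g => by
        have := hno4 (g : G)
        rw [Subgroup.orderOf_coe] at this
        exact this) x
      simpa using this
    have hS : ∀ x : S, (x : G) = 1 ∨ (x : G) = t := by
      intro x
      by_cases hx : (x : G) = 1
      · exact Or.inl hx
      · right
        apply htu
        apply orderOf_eq_prime _ hx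
        exact congrArg Subtype.val (hsq x)
    have hinj : Function.Injective (fun x : S => if (x : G) = 1 then (0 : Fin 2) else 1) := by
      intro x y hxy
      apply Subtype.ext
      rcases hS x with hx | hx <;> rcases hS y with hy | hy
      · rw [hx, hy]
      · have ht1 : t ≠ 1 := by rintro rfl; rw [orderOf_one] at ht; omega
        simp [hx, hy, ht1] at hxy
      · have ht1 : t ≠ 1 := by rintro rfl; rw [orderOf_one] at ht; omega
        simp [hx, hy, ht1] at hxy
      · rw [hx, hy]
    have := Nat.card_le_card_of_injective _ hinj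
    rw [Nat.card_fin] at this
    exact this
  let P : Sylow p G := default
  -- the index of `P` is 2
  have hidx : (P : Subgroup G).index = 2 := by
    have hpi : ¬ p ∣ (P : Subgroup G).index := P.not_dvd_index
    have h3 : ∀ q : ℕ, q.Prime → q ∣ (P : Subgroup G).index → q = 2 := by
      intro q hq hqi
      by_contra hq2
      have hqG : q ∣ Nat.card G := hqi.trans (Subgroup.index_dvd_card _)
      have := h.unique_odd hp hq hp2 hq2 hpG hqG
      subst this
      exact hpi hqi
    have h4 := Nat.eq_prime_pow_of_unique_prime_dvd (n := (P : Subgroup G).index)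
      (Subgroup.index_ne_zero_of_finite) (fun {d} hd hdi => h3 d hd hdi)
    set k := (P : Subgroup G).index.primeFactorsList.length with hk
    have h5 : 2 ^ k ∣ Nat.card S := by
      have h6 : 2 ^ k ∣ Nat.card G := by rw [← h4]; exact Subgroup.index_dvd_card _
      exact S.pow_dvd_card_of_pow_dvd_card h6
    have h6 : 2 ^ k ≤ 2 := (Nat.le_of_dvd Nat.card_pos h5).trans hS2
    have h7 : k ≠ 0 := by
      intro hk0
      rw [hk0, pow_zero] at h4
      have h8 : Nat.card G = Nat.card P := by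
        have := Subgroup.card_mul_index (P : Subgroup G)
        rw [h4, mul_one] at this
        exact this.symm
      obtain ⟨j, hj⟩ := IsPGroup.iff_card.mp P.isPGroup'
      rw [h8, hj] at h2
      have := Nat.Prime.dvd_of_dvd_pow Nat.prime_two h2
      exact hp2 ((Nat.prime_dvd_prime_iff_eq Nat.prime_two hp).mp this).symm
    have h8 : 2 ^ 1 ≤ 2 ^ k := Nat.pow_le_pow_right (by norm_num) (by omega)
    rw [h4]; omega
  -- the product decomposition
  have hcP : Nat.card P * 2 = Nat.card G := by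
    have := Subgroup.card_mul_index (P : Subgroup G)
    rw [hidx] at this; exact this
  have hf : ∀ (a : zpowers t) (b : P), Commute ((zpowers t).subtype a) ((P : Subgroup G).subtype b) := by
    rintro ⟨a, ha⟩ b
    obtain ⟨k, rfl⟩ := mem_zpowers_iff.mp ha
    exact (htc b).zpow_left k
  have hcard : Nat.card (zpowers t × P) = Nat.card G := by
    rw [Nat.card_prod, Nat.card_zpowers, ht, mul_comm]; exact hcP
  have hinj : Function.Injective
      (MonoidHom.noncommCoprod (zpowers t).subtype (P : Subgroup G).subtype hf) := by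
    rw [injective_iff_map_eq_one]
    rintro ⟨⟨a, ha⟩, b⟩ hab
    have hab' : a * (b : G) = 1 := hab
    have h1 : a = (b : G)⁻¹ := eq_inv_of_mul_eq_one_left hab'
    have h3 : orderOf a ∣ 2 := by
      have := orderOf_dvd_natCard (⟨a, ha⟩ : zpowers t)
      rwa [Subgroup.orderOf_mk, Nat.card_zpowers, ht] at this
    have h4 : orderOf a ∣ p := by
      rw [h1, orderOf_inv, Subgroup.orderOf_coe]
      exact orderOf_dvd_of_pow_eq_one (h.pow_p hp hp2 P.isPGroup' b)
    have h5 : orderOf a = 1 := by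
      have := Nat.dvd_gcd h3 h4
      rw [(Nat.coprime_primes Nat.prime_two hp).mpr (Ne.symm hp2)] at this
      exact Nat.dvd_one.mp this
    have h6 : a = 1 := orderOf_eq_one_iff.mp h5
    have h7 : b = 1 := by
      apply Subtype.ext
      rw [h6, eq_comm, inv_eq_one] at h1
      exact h1
    subst h7
    subst h6
    rfl
  have hbij : Function.Bijective
      (MonoidHom.noncommCoprod (zpowers t).subtype (P : Subgroup G).subtype hf) :=
    (Nat.bijective_iff_injective_and_card _).mpr ⟨hinj, hcard⟩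
  let e : (zpowers t × P) ≃* G := MulEquiv.ofBijective _ hbij
  let e2 : zpowers t ≃* Multiplicative (ZMod 2) :=
    mulEquivOfPrimeCardEq (p := 2) (by rw [Nat.card_zpowers, ht]) (by simp)
  haveI : Nontrivial P := by
    rw [← Finite.one_lt_card_iff_nontrivial]
    have : p ∣ Nat.card P := by
      have h1 : p ∣ Nat.card P * 2 := by rw [hcP]; exact hpG
      exact (hp.dvd_mul.mp h1).resolve_right (not_dvd_small hp hp2 (Or.inr rfl))
    exact lt_of_lt_of_le hp.one_lt (Nat.le_of_dvd Nat.card_pos this)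
  let e3 : Shrink.{0} P ≃* P := Shrink.mulEquiv
  refine ⟨p, Shrink.{0} P, inferInstance, inferInstance, hp, hp2, ?_, ?_, ⟨?_⟩⟩
  · exact P.isPGroup'.of_injective e3.toMonoidHom e3.injective
  · rw [Monoid.exponent_eq_of_mulEquiv e3]
    exact exponent_eq_prime hp (h.pow_p hp hp2 P.isPGroup')
  · exact e.symm.trans (MulEquiv.prodCongr e2 e3.symm)

theorem structure_of_two_values (hfrob : ∀ m : ℕ, m ∣ Nat.card G → m ∣ Nat.card {g : G // g ^ m = 1})
    (hn : n ≠ 1)
    (h : ((fun m : ℕ => Nat.card {g : G // orderOf g = m}) '' Set.range (orderOf : G → ℕ)) = {1, n}) :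
    (∃ p : ℕ, p.Prime ∧ IsPGroup p G ∧ 3 ≤ Nat.card G ∧ Monoid.exponent G = p) ∨
      Nonempty (G ≃* QuaternionGroup 2) ∨ (IsCyclic G ∧ Nat.card G = 4) ∨
      (∃ (p : ℕ) (P : Type) (_ : Group P) (_ : Finite P), p.Prime ∧ p ≠ 2 ∧ IsPGroup p P ∧
        Monoid.exponent P = p ∧ Nonempty (G ≃* Multiplicative (ZMod 2) × P)) := by
  have H : Hyp G n := by
    refine ⟨hfrob, fun g => ?_, ?_, hn⟩
    · have : cn G (orderOf g) ∈
          ((fun m : ℕ => Nat.card {g : G // orderOf g = m}) '' Set.range (orderOf : G → ℕ)) :=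
        ⟨orderOf g, ⟨g, rfl⟩, rfl⟩
      rw [h] at this
      simpa using this
    · have : n ∈
          ((fun m : ℕ => Nat.card {g : G // orderOf g = m}) '' Set.range (orderOf : G → ℕ)) := by
        rw [h]; simp
      obtain ⟨m, ⟨g, rfl⟩, hg⟩ := this
      exact ⟨g, hg⟩
  by_cases hodd : ∃ p : ℕ, p.Prime ∧ p ≠ 2 ∧ p ∣ Nat.card G
  · obtain ⟨p, hp, hp2, hpG⟩ := hodd
    by_cases h2 : 2 ∣ Nat.card G
    · right; right; right
      exact H.mixed hp hp2 hpG h2
    · left
      exact H.odd_only hp hp2 hpG h2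
  · push Not at hodd
    have hG : IsPGroup 2 G := isPGroup_of_unique (fun q hq hqG => by
      by_contra hq2
      exact hodd q hq hq2 hqG)
    rcases H.two_group hG with h1 | h1 | h1
    · exact Or.inl h1
    · exact Or.inr (Or.inl h1)
    · exact Or.inr (Or.inr (Or.inl h1))

end

end Cfsg.Agent.H494.SameOrder
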